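import Cfsg.Agent.Lib.GW.BSW2

/-! # Involution centralizer `GL₂(3)`: the lattice of generalized characters -/

set_option autoImplicit false
set_option linter.unusedSectionVars false

namespace Cfsg.Agent.Wong

open Subgroup Finset Cfsg.Agent.Char Cfsg.Agent.GW
open scoped ComplexConjugate Classical

universe u

variable {G : Type u} [Group G] [Fintype G]

theorem orth_of {θ ξ η : G → ℂ} (hξ : SI ξ) (hη : SI η) (h1 : classInner θ ξ = 1)
    (h0 : classInner θ η = 0) : classInner ξ η = 0 := by
  rcases hξ with h | h <;> rcases hη with h' | h'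
  · refine inner_eq_zero_of_isIrr h h' fun e => ?_
    rw [e, h0] at h1
    exact zero_ne_one h1
  · rw [← neg_eq_zero, ← Char.inner_neg_right]
    refine inner_eq_zero_of_isIrr h h' fun e => ?_
    rw [e, Char.inner_neg_right, h0] at h1
    simp at h1
  · rw [← neg_eq_zero, ← Char.inner_neg_left]
    refine inner_eq_zero_of_isIrr h h' fun e => ?_
    rw [← e, Char.inner_neg_right, h1] at h0
    simp at h0
  · have := inner_eq_zero_of_isIrr h h' fun e => by
      rw [neg_injective e, h0] at h1
      exact zero_ne_one h1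
    simpa [Char.inner_neg_left, Char.inner_neg_right] using this

theorem split {α β : G → ℂ} (hα : IsGeneralizedCharacter G α) (hβ : IsGeneralizedCharacter G β)
    (h2 : classInner α α = 2) (h3 : classInner β β = 3) (h1 : classInner β α = 1) :
    ∃ a b, SI a ∧ SI b ∧ α = a + b ∧ classInner a b = 0 ∧ classInner β a = 0 ∧
      classInner β b = 1 := by
  obtain ⟨a, b, ha, hb, e, h0⟩ := exists_si hα h2
  obtain ⟨x, y, hx, hy, hxy⟩ := bessel hβ ha hb h0 (n := 3) (by exact_mod_cast h3)
  rw [e, Char.inner_add_right, hx, hy] at h1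
  have h4 : x + y = 1 := by exact_mod_cast h1
  have h5 : x = 0 ∨ x = 1 := by
    have : x ≤ 1 := by nlinarith
    have : 0 ≤ x := by nlinarith
    omega
  rcases h5 with rfl | rfl
  · obtain rfl : y = 1 := by omega
    exact ⟨a, b, ha, hb, e, h0, by simpa using hx, by simpa using hy⟩
  · obtain rfl : y = 0 := by omega
    exact ⟨b, a, hb, ha, e.trans (add_comm _ _), (inner_comm_of_isGen hb.gen ha.gen).trans h0,
      by simpa using hy, by simpa using hx⟩

theorem eq_sub_of {θ a b : G → ℂ} (h : IsGeneralizedCharacter G θ) (ha : SI a) (hb : SI b)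
    (h0 : classInner a b = 0) (h2 : classInner θ θ = 2) (h1 : classInner θ a = 1)
    (h1' : classInner θ b = -1) : θ = a - b := by
  rw [← sub_eq_zero]
  refine eq_zero_of_inner_self ?_
  simp only [Char.inner_sub_left, Char.inner_sub_right, h2, h1, h1', h0, ha.norm, hb.norm,
    inner_comm_of_isGen ha.gen h, inner_comm_of_isGen hb.gen h, inner_comm_of_isGen hb.gen ha.gen]
  ring

theorem bessel4 {θ a b c e : G → ℂ} (h : IsGeneralizedCharacter G θ) (ha : SI a) (hb : SI b)
    (hc : SI c) (he : SI e) (hab : classInner a b = 0) (hac : classInner a c = 0)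
    (hae : classInner a e = 0) (hbc : classInner b c = 0) (hbe : classInner b e = 0)
    (hce : classInner c e = 0) (hn : classInner θ θ = 2) :
    ∃ x y z w : ℤ, classInner θ a = x ∧ classInner θ b = y ∧ classInner θ c = z ∧
      classInner θ e = w ∧ x ^ 2 + y ^ 2 + z ^ 2 + w ^ 2 ≤ 2 := by
  obtain ⟨x, hx⟩ := exists_int_inner h ha.gen
  obtain ⟨y, hy⟩ := exists_int_inner h hb.gen
  obtain ⟨z, hz⟩ := exists_int_inner h hc.gen
  obtain ⟨w, hw⟩ := exists_int_inner h he.gen
  obtain ⟨m, hm, h1⟩ := exists_norm_nonneg (isGen_sub (isGen_sub (isGen_sub (isGen_sub h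
    (isGen_intCast_smul x ha.gen)) (isGen_intCast_smul y hb.gen)) (isGen_intCast_smul z hc.gen))
    (isGen_intCast_smul w he.gen))
  simp only [Char.inner_sub_left, Char.inner_sub_right, Char.inner_smul_left,
    Char.inner_smul_right, hn, hx, hy, hz, hw, inner_comm_of_isGen ha.gen h,
    inner_comm_of_isGen hb.gen h, inner_comm_of_isGen hc.gen h, inner_comm_of_isGen he.gen h,
    hab, hac, hae, hbc, hbe, hce, ha.norm, hb.norm, hc.norm, he.norm,
    inner_comm_of_isGen hb.gen ha.gen, inner_comm_of_isGen hc.gen ha.gen,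
    inner_comm_of_isGen he.gen ha.gen, inner_comm_of_isGen hc.gen hb.gen,
    inner_comm_of_isGen he.gen hb.gen, inner_comm_of_isGen he.gen hc.gen, map_intCast] at h1
  have h2 : 2 - x ^ 2 - y ^ 2 - z ^ 2 - w ^ 2 = m := by exact_mod_cast (by linear_combination h1 :
    (2 - x ^ 2 - y ^ 2 - z ^ 2 - w ^ 2 : ℂ) = m)
  exact ⟨x, y, z, w, hx, hy, hz, hw, by omega⟩

/-- The decomposition of the exceptional generalized characters. -/
theorem decomp {α β γ δ δ' : G → ℂ} (hα : IsGeneralizedCharacter G α)
    (hβ : IsGeneralizedCharacter G β) (hγ : IsGeneralizedCharacter G γ)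
    (hδ : IsGeneralizedCharacter G δ) (hδ' : IsGeneralizedCharacter G δ')
    (αα : classInner α α = 2) (ββ : classInner β β = 3) (γγ : classInner γ γ = 3)
    (δδ : classInner δ δ = 2) (δδ' : classInner δ' δ' = 2) (βα : classInner β α = 1)
    (γα : classInner γ α = 1) (γβ : classInner γ β = 2) (δα : classInner δ α = 0)
    (δβ : classInner δ β = 0) (δα' : classInner δ' α = 0)
    (δβ' : classInner δ' β = 0) (dd : classInner δ δ' = 1)
    (d : α 1 = γ 1 - β 1) :
    ∃ a b c e, SI a ∧ SI b ∧ SI c ∧ SI e ∧ α = a + b ∧ β = b + c + e ∧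
      (classInner α a = 1 ∧ classInner β a = 0 ∧ classInner γ a = 0 ∧ classInner δ a = 0 ∧
        classInner δ' a = 0) ∧
      (classInner α b = 1 ∧ classInner β b = 1 ∧ classInner γ b = 1 ∧ classInner δ b = 0 ∧
        classInner δ' b = 0) ∧
      (classInner α c = 0 ∧ classInner β c = 1 ∧ classInner γ c = 1 ∧ classInner δ c = 0 ∧
        classInner δ' c = 0) ∧
      (classInner α e = 0 ∧ classInner β e = 1 ∧ classInner γ e = 0 ∧ classInner δ e = 0 ∧
        classInner δ' e = 0) := by
  obtain ⟨a, b, ha, hb, e1, hab, βa, βb⟩ := split hα hβ αα ββ βα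
  have hba := (inner_comm_of_isGen hb.gen ha.gen).trans hab
  obtain ⟨p, q, γa, γb, hpq⟩ := bessel hγ ha hb hab (n := 3) (by exact_mod_cast γγ)
  have h4 : p + q = 1 := by
    rw [e1, Char.inner_add_right, γa, γb] at γα
    exact_mod_cast γα
  have h5 : p = 0 := by
    by_contra hp
    obtain rfl : p = 1 := by
      have : p ≤ 1 := by nlinarith
      have : 0 ≤ p := by nlinarith
      omega
    obtain rfl : q = 0 := by omega
    have := eq_sub_of (isGen_sub hγ hβ) ha hb hab (by
      simp only [Char.inner_sub_left, Char.inner_sub_right, γγ, ββ, γβ, inner_comm_of_isGen hβ hγ]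
      ring) (by simp [Char.inner_sub_left, γa, βa]) (by simp [Char.inner_sub_left, γb, βb])
    have h := congrFun this 1
    rw [e1] at d
    simp only [Pi.sub_apply, Pi.add_apply] at h d
    exact hb.one_ne (by linear_combination (d + h) / 2)
  subst h5
  obtain rfl : q = 1 := by omega
  simp only [Int.cast_zero, Int.cast_one] at γa γb
  have bβ := (inner_comm_of_isGen hb.gen hβ).trans βb
  have hβb := isGen_sub hβ hb.gen
  obtain ⟨e, c, he, hc, e2, hec, γe, γc⟩ := split hβb hγ (by
    simp only [Char.inner_sub_left, Char.inner_sub_right, ββ, βb, bβ, hb.norm]; ring) γγ (by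
    rw [Char.inner_sub_right, γβ, γb]; ring)
  have hce := (inner_comm_of_isGen hc.gen he.gen).trans hec
  have i1 : classInner (β - b) c = 1 := by rw [e2, Char.inner_add_left, hec, hc.norm, zero_add]
  have i2 : classInner (β - b) e = 1 := by rw [e2, Char.inner_add_left, hce, he.norm, add_zero]
  have i3 : classInner (β - b) a = 0 := by rw [Char.inner_sub_left, βa, hba, sub_zero]
  have i4 : classInner (β - b) b = 0 := by rw [Char.inner_sub_left, βb, hb.norm, sub_self]
  have hac := (inner_comm_of_isGen ha.gen hc.gen).trans (orth_of hc ha i1 i3)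
  have hae := (inner_comm_of_isGen ha.gen he.gen).trans (orth_of he ha i2 i3)
  have hbc := (inner_comm_of_isGen hb.gen hc.gen).trans (orth_of hc hb i1 i4)
  have hbe := (inner_comm_of_isGen hb.gen he.gen).trans (orth_of he hb i2 i4)
  have e3 : β = b + c + e := by rw [← sub_add_cancel β b, e2]; abel
  have key : ∀ {δ δ' : G → ℂ}, IsGeneralizedCharacter G δ → IsGeneralizedCharacter G δ' →
      classInner δ δ = 2 → classInner δ' δ' = 2 → classInner δ α = 0 → classInner δ β = 0 →
      classInner δ' α = 0 → classInner δ' β = 0 → classInner δ' δ = 1 →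
      classInner δ a = 0 ∧ classInner δ b = 0 ∧ classInner δ c = 0 ∧ classInner δ e = 0 := by
    have k1 : ∀ {δ : G → ℂ}, IsGeneralizedCharacter G δ → classInner δ δ = 2 →
        classInner δ α = 0 → classInner δ β = 0 → ∃ z : ℤ, classInner δ a = 0 ∧
          classInner δ b = 0 ∧ classInner δ c = z ∧ classInner δ e = -z ∧
            (z = 0 ∨ z = 1 ∨ z = -1) := by
      intro δ hδ δδ δα δβ
      obtain ⟨x, y, z, w, hx, hy, hz, hw, h⟩ := bessel4 hδ ha hb hc he hab hac hae hbc hbe hce δδ
      rw [e1, Char.inner_add_right, hx, hy] at δα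
      rw [e3, Char.inner_add_right, Char.inner_add_right, hy, hz, hw] at δβ
      have j1 : x + y = 0 := by exact_mod_cast δα
      have j2 : y + z + w = 0 := by exact_mod_cast δβ
      obtain rfl : x = -y := by omega
      obtain rfl : w = -y - z := by omega
      have j3 : y = 0 := by
        by_contra hy0
        have : 1 ≤ y ^ 2 := by have := sq_pos_of_ne_zero hy0; omega
        have j4 : z = 0 := by nlinarith [sq_nonneg z, sq_nonneg (-y - z)]
        subst j4
        nlinarith
      subst j3
      refine ⟨z, by simpa using hx, by simpa using hy, hz, by simpa using hw, ?_⟩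
      have : z ≤ 1 := by nlinarith
      have : -1 ≤ z := by nlinarith
      omega
    intro δ δ' hδ hδ' δδ δδ' δα δβ δα' δβ' dd
    obtain ⟨z, h1, h2, h3, h4, hz⟩ := k1 hδ δδ δα δβ
    obtain ⟨z', -, -, h3', h4', -⟩ := k1 hδ' δδ' δα' δβ'
    rcases hz with rfl | rfl | rfl
    · exact ⟨h1, h2, by simpa using h3, by simpa using h4⟩
    · rw [eq_sub_of hδ hc he hce δδ (by simpa using h3) (by simpa using h4),
        Char.inner_sub_right, h3', h4'] at dd
      have : z' - -z' = 1 := by exact_mod_cast dd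
      omega
    · rw [eq_sub_of hδ he hc hec δδ (by simpa using h4) (by simpa using h3),
        Char.inner_sub_right, h3', h4'] at dd
      have : -z' - z' = 1 := by exact_mod_cast dd
      omega
  obtain ⟨k1, k2, k3, k4⟩ := key hδ hδ' δδ δδ' δα δβ δα' δβ'
    ((inner_comm_of_isGen hδ' hδ).trans dd)
  obtain ⟨l1, l2, l3, l4⟩ := key hδ' hδ δδ' δδ δα' δβ' δα δβ dd
  refine ⟨a, b, c, e, ha, hb, hc, he, e1, e3, ⟨?_, βa, γa, k1, l1⟩, ⟨?_, βb, γb, k2, l2⟩,
    ⟨?_, ?_, γc, k3, l3⟩, ?_, ?_, γe, k4, l4⟩
  · rw [e1, Char.inner_add_left, ha.norm, hba, add_zero]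
  · rw [e1, Char.inner_add_left, hb.norm, hab, zero_add]
  · rw [e1, Char.inner_add_left, hac, hbc, add_zero]
  · rw [Char.inner_sub_left, hbc, sub_zero] at i1; exact i1
  · rw [e1, Char.inner_add_left, hae, hbe, add_zero]
  · rw [Char.inner_sub_left, hbe, sub_zero] at i2; exact i2

theorem arith {b c : ℤ} (hb : b % 8 = 4) (hc : c % 8 = 1) (hc1 : c ≠ 1)
    (h : (b - 8) * (c * (b + c)) = (b - 8 * c) * (b + 1)) : b = 12 ∨ b = 44 := by
  have h1 : (c - 1) * (b ^ 2 + b * (c + 1) - 8 * c) = 0 := by linear_combination h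
  have h2 : b ^ 2 + b * (c + 1) - 8 * c = 0 :=
    (mul_eq_zero.1 h1).resolve_left (by omega)
  have h3 : (b - 8) * (-(c + b + 9)) = 72 := by linear_combination -h2
  have h4 : b - 8 ∣ 72 := ⟨_, h3.symm⟩
  have h5 : b - 8 ≤ 72 := Int.le_of_dvd (by norm_num) h4
  have h6 : -(b - 8) ≤ 72 := Int.le_of_dvd (by norm_num) ((neg_dvd).2 h4)
  obtain ⟨k, rfl⟩ : ∃ k, b = 8 * k + 4 := ⟨b / 8, by omega⟩
  have h7 : -9 ≤ k := by omega
  have h8 : k ≤ 10 := by omega
  interval_cases k <;> omega

end Cfsg.Agent.Wong
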