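import Mathlib

/-! # Involution centralizer `GL₂(3)`: the group `GL₂(3)` in coordinates -/

set_option autoImplicit false

namespace Cfsg.Agent.Wong

/-- Determinant of a quadruple. -/
def dt (x : ZMod 3 × ZMod 3 × ZMod 3 × ZMod 3) : ZMod 3 := x.1 * x.2.2.2 - x.2.1 * x.2.2.1

/-- `GL₂(3)` as quadruples. -/
def W : Type := {x : ZMod 3 × ZMod 3 × ZMod 3 × ZMod 3 // dt x * dt x = 1}

instance : Fintype W := inferInstanceAs (Fintype {x // dt x * dt x = 1})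

instance : DecidableEq W := inferInstanceAs (DecidableEq {x // dt x * dt x = 1})

instance : Mul W := ⟨fun x y => ⟨(x.1.1 * y.1.1 + x.1.2.1 * y.1.2.2.1,
  x.1.1 * y.1.2.1 + x.1.2.1 * y.1.2.2.2, x.1.2.2.1 * y.1.1 + x.1.2.2.2 * y.1.2.2.1,
  x.1.2.2.1 * y.1.2.1 + x.1.2.2.2 * y.1.2.2.2), by
    have hx := x.2
    have hy := y.2
    simp only [dt] at hx hy ⊢
    linear_combination (y.1.1 * y.1.2.2.2 - y.1.2.1 * y.1.2.2.1) ^ 2 * hx + hy⟩⟩

instance : One W := ⟨⟨(1, 0, 0, 1), by decide⟩⟩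

instance : Inv W := ⟨fun x => ⟨(dt x.1 * x.1.2.2.2, -(dt x.1 * x.1.2.1), -(dt x.1 * x.1.2.2.1),
  dt x.1 * x.1.1), by
    have hx := x.2
    simp only [dt] at hx ⊢
    linear_combination ((x.1.1 * x.1.2.2.2 - x.1.2.1 * x.1.2.2.1) ^ 4 +
      (x.1.1 * x.1.2.2.2 - x.1.2.1 * x.1.2.2.1) ^ 2 + 1) * hx⟩⟩

theorem W.mul_val (x y : W) : (x * y).1 = (x.1.1 * y.1.1 + x.1.2.1 * y.1.2.2.1,
  x.1.1 * y.1.2.1 + x.1.2.1 * y.1.2.2.2, x.1.2.2.1 * y.1.1 + x.1.2.2.2 * y.1.2.2.1,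
  x.1.2.2.1 * y.1.2.1 + x.1.2.2.2 * y.1.2.2.2) := rfl

instance : Group W := Group.ofLeftAxioms
  (fun x y z => Subtype.ext (by
    simp only [W.mul_val, Prod.mk.injEq]
    refine ⟨?_, ?_, ?_, ?_⟩ <;> ring))
  (by decide +kernel) (by decide +kernel)

/-- The matrix of a quadruple. -/
def W.mat (x : W) : Matrix (Fin 2) (Fin 2) (ZMod 3) := !![x.1.1, x.1.2.1; x.1.2.2.1, x.1.2.2.2]

/-- The matrix as a monoid homomorphism. -/
def W.matH : W →* Matrix (Fin 2) (Fin 2) (ZMod 3) where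
  toFun := W.mat
  map_one' := by decide +kernel
  map_mul' x y := by
    simp only [W.mat, W.mul_val, Matrix.mul_fin_two]

theorem W.bij : Function.Bijective (W.matH.toHomUnits : W →* GL (Fin 2) (ZMod 3)) := by
  refine ⟨fun x y h => ?_, fun g => ?_⟩
  · have h1 : W.mat x = W.mat y := congrArg Units.val h
    have h2 := fun i j => congrFun (congrFun h1 i) j
    refine Subtype.ext (Prod.ext (h2 0 0) (Prod.ext (h2 0 1) (Prod.ext (h2 1 0) (h2 1 1))))
  · have h1 : ∀ a b : ZMod 3, a * b = 1 → a * a = 1 := by decide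
    have h2 : (g : Matrix (Fin 2) (Fin 2) (ZMod 3)).det * (g⁻¹ : GL (Fin 2) (ZMod 3)).1.det = 1 := by
      rw [← Matrix.det_mul, Units.mul_inv, Matrix.det_one]
    refine ⟨⟨(g 0 0, g 0 1, g 1 0, g 1 1), ?_⟩, Units.ext ?_⟩
    · have := h1 _ _ h2
      rwa [Matrix.det_fin_two] at this
    · exact (Matrix.eta_fin_two _).symm

/-- Class representatives: `1, t, y, tx, z, z⁵, x, s`. -/
def r : Fin 8 → W := ![⟨(1, 0, 0, 1), by decide⟩, ⟨(2, 0, 0, 2), by decide⟩,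
  ⟨(0, 2, 1, 0), by decide⟩, ⟨(2, 2, 0, 2), by decide⟩, ⟨(0, 1, 1, 1), by decide⟩,
  ⟨(0, 2, 2, 2), by decide⟩, ⟨(1, 1, 0, 1), by decide⟩, ⟨(1, 0, 0, 2), by decide⟩]

/-- The class of an element. -/
def cls (x : W) : Fin 8 :=
  if dt x.1 = 1 then
    (if x.1.1 + x.1.2.2.2 = 0 then 2 else if x.1.1 + x.1.2.2.2 = 2 then (if x = r 0 then 0 else 6)
      else if x = r 1 then 1 else 3)
  else if x.1.1 + x.1.2.2.2 = 0 then 7 else if x.1.1 + x.1.2.2.2 = 1 then 4 else 5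

theorem conj_r : ∀ w : W, ∃ x : W, x * r (cls w) * x⁻¹ = w := by decide +kernel

theorem cls_conj : ∀ (j : Fin 8) (x : W), cls (x * r j * x⁻¹) = j := by decide +kernel

theorem central : ∀ w : W, w * r 4 = r 4 * w → w * r 6 = r 6 * w → w * w = 1 → w ≠ 1 →
    w = r 1 := by decide +kernel

theorem r_zero : r 0 = 1 := by decide +kernel

theorem r_ne : ∀ j, j ≠ 0 → r j ≠ 1 := by decide +kernel

/-- Exponent with `r j ^ ex j = t`. -/
def ex : Fin 8 → ℕ := ![0, 1, 2, 3, 4, 4, 0, 0]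

/-- The classes with `t` as a power. -/
def InA (j : Fin 8) : Prop := j ≠ 0 ∧ j ≠ 6 ∧ j ≠ 7

instance : DecidablePred InA := fun j => inferInstanceAs (Decidable (j ≠ 0 ∧ j ≠ 6 ∧ j ≠ 7))

theorem r_pow : ∀ j, InA j → r j ^ ex j = r 1 := by decide +kernel

theorem r_uniq : ∀ i j, InA j → r j ^ ex i * r j ^ ex i = 1 → r j ^ ex i ≠ 1 →
    r j ^ ex i = r 1 := by decide +kernel

theorem t_sq : r 1 * r 1 = 1 := by decide +kernel

theorem t_comm : ∀ w, w * r 1 = r 1 * w := by decide +kernel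

/-- Centralizer orders. -/
def cn : Fin 8 → ℕ := ![48, 48, 8, 6, 8, 8, 6, 4]

theorem card_cent : ∀ j, (Finset.univ.filter fun w => w * r j = r j * w).card = cn j := by
  decide +kernel

theorem invol : ∀ w : W, w * w = 1 → w ≠ 1 → cls w = 1 ∨ cls w = 7 := by decide +kernel

theorem cls_one : ∀ w : W, cls w = 1 → w = r 1 := by decide +kernel

/-- Numbers of factorizations into involutions. -/
def nn : Fin 8 → ℕ := ![13, 12, 4, 6, 0, 0, 6, 2]

theorem card_nn : ∀ j, (Finset.univ.filter fun w : W => (cls w = 1 ∨ cls w = 7) ∧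
    (cls (w⁻¹ * r j) = 1 ∨ cls (w⁻¹ * r j) = 7)).card = nn j := by decide +kernel

theorem z_pow : ∀ i : Fin 8, cls (r 4 ^ (i : ℕ)) = ![0, 4, 2, 4, 1, 5, 2, 5] i := by decide +kernel

theorem z_ord : r 4 ^ 8 = 1 ∧ ∀ i : Fin 8, r 4 ^ (i : ℕ) = 1 → i = 0 := by decide +kernel

/-- A sign attached to an element of `ZMod 3`. -/
def sg (a : ZMod 3) : ℤˣ := if a = 1 then 1 else -1

/-- Upper triangular matrices. -/
def B : Subgroup W where
  carrier := {w | w.1.2.2.1 = 0}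
  one_mem' := rfl
  mul_mem' {a b} ha hb := by
    simp only [Set.mem_ofPred_eq, W.mul_val] at ha hb ⊢
    rw [ha, hb]; ring
  inv_mem' {a} ha := by
    have ha' : a.1.2.2.1 = 0 := ha
    change -(dt a.1 * a.1.2.2.1) = 0
    rw [ha']; ring

instance : DecidablePred (· ∈ B) := fun w => inferInstanceAs (Decidable (w.1.2.2.1 = 0))

theorem det_mul : ∀ a b : W, sg (dt (a * b).1) = sg (dt a.1) * sg (dt b.1) := by decide +kernel

theorem mu_mul : ∀ a b : W, a ∈ B → b ∈ B → sg (a * b).1.1 = sg a.1.1 * sg b.1.1 := by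
  decide +kernel

/-- Signed class counts. -/
def cnt (p : W → Prop) [DecidablePred p] (σ : W → ℤˣ) (j : Fin 8) : ℤ :=
  ∑ w, if p w ∧ cls w = j then (σ w : ℤ) else 0

theorem cnt_1 : cnt (fun _ => True) (fun _ => 1) = ![1, 1, 6, 8, 6, 6, 8, 12] := by decide +kernel

theorem cnt_d : cnt (fun _ => True) (fun w => sg (dt w.1)) = ![1, 1, 6, 8, -6, -6, 8, -12] := by
  decide +kernel

theorem cnt_B1 : cnt (· ∈ B) (fun _ => 1) = ![1, 1, 0, 2, 0, 0, 2, 6] := by decide +kernel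

theorem cnt_Bd : cnt (· ∈ B) (fun w => sg (dt w.1)) = ![1, 1, 0, 2, 0, 0, 2, -6] := by
  decide +kernel

theorem cnt_Bm : cnt (· ∈ B) (fun w => sg w.1.1) = ![1, -1, 0, -2, 0, 0, 2, 0] := by
  decide +kernel

theorem card_W : Fintype.card W = 48 := by decide +kernel

theorem card_B : (Finset.univ.filter (· ∈ B)).card = 12 := by decide +kernel

end Cfsg.Agent.Wong
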