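import Cfsg.Agent.Lib.Wong.W1
import Cfsg.Agent.Lib.Wong.W2

/-! # Involution centralizer `GL₂(3)`: the induced generalized characters -/

set_option autoImplicit false
set_option linter.unusedSectionVars false

namespace Cfsg.Agent.Wong

open Subgroup Finset Cfsg.Agent.Char Cfsg.Agent.GW
open scoped ComplexConjugate

universe u

variable {G : Type u} [Group G] [Fintype G]

theorem exists_ind {K : Type*} [Group K] [Fintype K] (f : K →* G) (hf : Function.Injective f)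
    (l : K →* ℂˣ) : ∃ Θ, IsGeneralizedCharacter G Θ ∧ ∀ ξ, IsClassFunction G ξ →
      classInner Θ ξ = (Fintype.card K : ℂ)⁻¹ * ∑ k, (l k : ℂ) * conj (ξ (f k)) := by
  classical
  let e := MonoidHom.ofInjective hf
  refine ⟨indFun f.range fun x => ((l.comp e.symm.toMonoidHom) x : ℂ),
    Ind.isGen_indFun _ (isGen_of_isIrr (isIrr_unitsHom _)), fun ξ hξ => ?_⟩
  rw [Ind.frobenius _ _ hξ, classInner, ← Nat.card_congr e.toEquiv, Nat.card_eq_fintype_card]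
  congr 1
  refine (Fintype.sum_equiv e.toEquiv _ _ fun k => ?_).symm
  simp [e, MonoidHom.ofInjective_apply]

/-- `Θ` is a generalized character given by weights on the classes. -/
def Rp (ι : W →* G) (Θ : G → ℂ) (c : Fin 8 → ℂ) : Prop :=
  IsGeneralizedCharacter G Θ ∧ ∀ ξ, IsClassFunction G ξ →
    classInner Θ ξ = ∑ j, c j * conj (ξ (ι (r j)))

variable {ι : W →* G}

theorem Rp.add {Θ Θ' : G → ℂ} {c c' : Fin 8 → ℂ} (h : Rp ι Θ c) (h' : Rp ι Θ' c') :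
    Rp ι (Θ + Θ') (c + c') :=
  ⟨isGen_add h.1 h'.1, fun ξ hξ => by
    simp only [Char.inner_add_left, h.2 ξ hξ, h'.2 ξ hξ, Pi.add_apply, add_mul, sum_add_distrib]⟩

theorem Rp.sub {Θ Θ' : G → ℂ} {c c' : Fin 8 → ℂ} (h : Rp ι Θ c) (h' : Rp ι Θ' c') :
    Rp ι (Θ - Θ') (c - c') :=
  ⟨isGen_sub h.1 h'.1, fun ξ hξ => by
    simp only [Char.inner_sub_left, h.2 ξ hξ, h'.2 ξ hξ, Pi.sub_apply, sub_mul, sum_sub_distrib]⟩

theorem cls_val {ξ : G → ℂ} (hξ : IsClassFunction G ξ) (w : W) : ξ (ι w) = ξ (ι (r (cls w))) := by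
  obtain ⟨x, hx⟩ := conj_r w
  conv_lhs => rw [← hx, map_mul, map_mul, map_inv, hξ]

theorem exists_sign (hι : Function.Injective ι) (K : Subgroup W) (p : W → Prop) [DecidablePred p]
    (hp : ∀ w, w ∈ K ↔ p w) (σ : W → ℤˣ) (hσ : ∀ a b, p a → p b → σ (a * b) = σ a * σ b)
    {n : ℕ} (hn : (univ.filter p).card = n) {c : Fin 8 → ℤ} (hc : cnt p σ = c) :
    ∃ Θ, Rp ι Θ fun j => (c j : ℂ) / n := by
  classical
  let l : K →* ℂˣ := (Units.map (Int.castRingHom ℂ).toMonoidHom).comp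
    (MonoidHom.mk' (fun k : K => σ k) fun a b => hσ _ _ ((hp _).1 a.2) ((hp _).1 b.2))
  obtain ⟨Θ, h1, h2⟩ := exists_ind (ι.comp K.subtype) (hι.comp Subtype.val_injective) l
  refine ⟨Θ, h1, fun ξ hξ => ?_⟩
  have e1 : Fintype.card K = n := by
    rw [← hn, Fintype.card_subtype]
    exact congrArg _ (filter_congr fun w _ => hp w)
  have e2 : ∑ k : K, (l k : ℂ) * conj (ξ ((ι.comp K.subtype) k)) =
      ∑ w, if p w then ((σ w : ℤ) : ℂ) * conj (ξ (ι w)) else 0 := by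
    rw [← sum_filter, sum_subtype (univ.filter p) (p := (· ∈ K)) (by simp [hp])]
    rfl
  rw [h2 ξ hξ, e1, e2, ← hc]
  simp only [cnt, div_eq_inv_mul, mul_assoc, ← mul_sum]
  congr 1
  simp only [Int.cast_sum, sum_mul]
  rw [sum_comm]
  refine sum_congr rfl fun w _ => ?_
  by_cases hw : p w
  · simp [hw, ite_mul, cls_val hξ w]
  · simp [hw]

theorem exists_cyc (hι : Function.Injective ι) {ζ : ℂ} (hζ : ζ ^ 8 = 1) :
    ∃ Θ, Rp ι Θ ![1 / 8, ζ ^ 4 / 8, (ζ ^ 2 + ζ ^ 6) / 8, 0, (ζ + ζ ^ 3) / 8, (ζ ^ 5 + ζ ^ 7) / 8,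
      0, 0] := by
  have mk : ∀ {M : Type} [Group M] (g : M), g ^ 8 = 1 →
      ∃ f : Multiplicative (Fin 8) →* M, ∀ k, f k = g ^ (k.toAdd : ℕ) := fun g hg =>
    ⟨MonoidHom.mk' (fun k => g ^ (k.toAdd : ℕ)) fun a b => by
      rw [toAdd_mul, Fin.val_add, ← pow_eq_pow_mod _ hg, pow_add], fun _ => rfl⟩
  obtain ⟨f, hf⟩ := mk (r 4) z_ord.1
  have h0 : ζ ≠ 0 := by rintro rfl; simp at hζ
  obtain ⟨l, hl⟩ := mk (Units.mk0 ζ h0) (Units.ext (by simpa using hζ))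
  obtain ⟨Θ, h1, h2⟩ := exists_ind (ι.comp f) (hι.comp ((injective_iff_map_eq_one f).2
    fun k hk => z_ord.2 k.toAdd ((hf k).symm.trans hk))) l
  refine ⟨Θ, h1, fun ξ hξ => ?_⟩
  have e : ∑ k, (l k : ℂ) * conj (ξ ((ι.comp f) k)) =
      ∑ i : Fin 8, ζ ^ (i : ℕ) * conj (ξ (ι (r (![0, 4, 2, 4, 1, 5, 2, 5] i)))) := by
    refine Fintype.sum_equiv Multiplicative.toAdd _ _ fun k => ?_
    rw [hl, MonoidHom.comp_apply, hf, cls_val hξ, z_pow]
    simp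
  rw [h2 ξ hξ, e]
  simp [Fin.sum_univ_eight]
  ring

/-- The six generalized characters. -/
theorem exists_six (hι : Function.Injective ι) : ∃ (ω : ℂ) (Θ₃ Θ₄ Θ₆ Θ₂ Θ₂' Θ₈ : G → ℂ),
    ω * ω = -2 ∧ conj ω = -ω ∧ Rp ι Θ₃ ![0, 1 / 6, 0, 1 / 3, 1 / 4, 1 / 4, 0, 0] ∧
    Rp ι Θ₄ ![0, 1 / 6, 0, 1 / 3, -1 / 4, -1 / 4, 0, 0] ∧
    Rp ι Θ₆ ![0, 1 / 6, 1 / 2, 1 / 3, 0, 0, 0, 0] ∧
    Rp ι Θ₂ ![0, 1 / 12, 1 / 4, -1 / 3, -ω / 8, ω / 8, 0, 0] ∧
    Rp ι Θ₂' ![0, 1 / 12, 1 / 4, -1 / 3, ω / 8, -ω / 8, 0, 0] ∧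
    Rp ι Θ₈ ![1 / 8, 1 / 8, 1 / 4, 0, 1 / 4, 1 / 4, 0, 0] := by
  have hW : (univ.filter fun _ : W => True).card = 48 := by simpa using card_W
  obtain ⟨H1, h1⟩ := exists_sign hι ⊤ (fun _ => True) (by simp) _ (by simp) hW cnt_1
  obtain ⟨Hd, hd⟩ := exists_sign hι ⊤ (fun _ => True) (by simp) _ (fun a b _ _ => det_mul a b) hW
    cnt_d
  obtain ⟨B1, b1⟩ := exists_sign hι B (· ∈ B) (by simp) _ (by simp) card_B cnt_B1
  obtain ⟨Bd, bd⟩ := exists_sign hι B (· ∈ B) (by simp) _ (fun a b _ _ => det_mul a b) card_B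
    cnt_Bd
  obtain ⟨Bm, bm⟩ := exists_sign hι B (· ∈ B) (by simp) _ mu_mul card_B cnt_Bm
  obtain ⟨ζ, hζ⟩ : ∃ ζ : ℂ, ζ ^ 4 = -1 := IsAlgClosed.exists_pow_nat_eq _ (by norm_num)
  have h8 : ζ ^ 8 = 1 := by linear_combination (ζ ^ 4 - 1) * hζ
  obtain ⟨C1, c1⟩ := exists_cyc hι (one_pow 8)
  obtain ⟨Cl, cl⟩ := exists_cyc hι h8
  obtain ⟨Cm, cm⟩ := exists_cyc hι (ζ := -ζ) (by linear_combination h8)
  have hn : ‖ζ‖ = 1 := by
    have := congrArg norm h8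
    rw [norm_pow, norm_one] at this
    exact (pow_eq_one_iff_of_nonneg (norm_nonneg _) (by norm_num)).1 this
  have hc : conj ζ * ζ = 1 := by rw [Complex.conj_mul', hn]; simp
  have hc' : conj ζ = -ζ ^ 3 := by linear_combination conj ζ * hζ - ζ ^ 3 * hc
  refine ⟨ζ + ζ ^ 3, H1 - Hd + Bd - Bm, Hd - H1 + B1 - Bm, Hd + Hd + C1 - Bd - Bm,
    C1 - H1 + Hd - Bd + Bm - Cl, C1 - H1 + Hd - Bd + Bm - Cm, C1,
    by linear_combination (ζ ^ 2 + 2) * hζ, ?_, ?_, ?_, ?_, ?_, ?_, ?_⟩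
  · rw [map_add, map_pow, hc']
    linear_combination -ζ * h8
  · convert ((h1.sub hd).add bd).sub bm using 1
    ext j; simp only [Pi.add_apply, Pi.sub_apply]; fin_cases j <;> simp <;> norm_num
  · convert ((hd.sub h1).add b1).sub bm using 1
    ext j; simp only [Pi.add_apply, Pi.sub_apply]; fin_cases j <;> simp <;> norm_num
  · convert (((hd.add hd).add c1).sub bd).sub bm using 1
    ext j; simp only [Pi.add_apply, Pi.sub_apply]; fin_cases j <;> simp <;> norm_num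
  · convert ((((c1.sub h1).add hd).sub bd).add bm).sub cl using 1
    ext j; simp only [Pi.add_apply, Pi.sub_apply]
    fin_cases j <;> simp <;> first | ring1 | linear_combination hζ / 8 |
      linear_combination ζ ^ 2 / 8 * hζ | linear_combination (ζ + ζ ^ 3) / 8 * hζ
  · convert ((((c1.sub h1).add hd).sub bd).add bm).sub cm using 1
    ext j; simp only [Pi.add_apply, Pi.sub_apply]
    fin_cases j <;> simp <;> first | ring1 | linear_combination hζ / 8 |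
      linear_combination ζ ^ 2 / 8 * hζ | linear_combination (-ζ + -ζ ^ 3) / 8 * hζ
  · convert c1 using 1
    ext j; fin_cases j <;> simp <;> norm_num

end Cfsg.Agent.Wong
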