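import Cfsg.Agent.Lib.Wong.W3

/-! # Involution centralizer `GL₂(3)`: fusion and the order of the group -/

set_option autoImplicit false
set_option linter.unusedSectionVars false

namespace Cfsg.Agent.Wong

open Subgroup Finset Cfsg.Agent.Char Cfsg.Agent.GW
open scoped ComplexConjugate Classical

universe u

variable {G : Type u} [Group G] [Fintype G] {ι : W →* G} (hι : Function.Injective ι)
  (hr : ∀ g, g * ι (r 1) * g⁻¹ = ι (r 1) → ∃ w, ι w = g)
include hι hr

theorem fus {i j : Fin 8} (hi : InA i) (hj : InA j) {g : G} (hg : g * ι (r i) * g⁻¹ = ι (r j)) :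
    ∃ w, ι w = g := by
  have h1 : g * ι (r 1) * g⁻¹ = ι (r j ^ ex i) := by
    rw [map_pow, ← hg, conj_pow, ← map_pow, r_pow i hi]
  refine hr g (h1.trans (congrArg ι (r_uniq i j hj (hι ?_) fun h => r_ne 1 (by decide) (hι ?_))))
  · rw [map_mul, ← h1, conj_mul, ← map_mul, t_sq]; simp
  · rw [h, map_one] at h1
    rw [map_one]
    simpa [mul_inv_eq_one] using h1

theorem eq_of_isConj {i j : Fin 8} (hi : InA i) (hj : InA j) (h : IsConj (ι (r i)) (ι (r j))) :
    i = j := by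
  obtain ⟨g, hg⟩ := isConj_iff.1 h
  obtain ⟨w, rfl⟩ := fus hι hr hi hj hg
  have h1 : w * r i * w⁻¹ = r j := hι (by simpa using hg)
  rw [← cls_conj i w, h1]
  simpa using cls_conj j 1

theorem card_C {j : Fin 8} (hj : InA j) : Nat.card (centralizer ({ι (r j)} : Set G)) = cn j := by
  rw [← card_cent, ← card_image_of_injective _ hι, Nat.card_eq_fintype_card, Fintype.card_subtype]
  congr 1
  ext g
  simp only [mem_filter, mem_univ, true_and, mem_image, mem_centralizer_singleton_iff]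
  constructor
  · intro h
    obtain ⟨w, rfl⟩ := fus hι hr hj hj (g := g) (by rw [h]; simp)
    exact ⟨w, hι (by simpa using h), rfl⟩
  · rintro ⟨w, hw, rfl⟩
    simpa using congrArg ι hw

theorem Rp.val {Θ : G → ℂ} {c : Fin 8 → ℂ} (h : Rp ι Θ c) (h0 : c 0 = 0) (h6 : c 6 = 0)
    (h7 : c 7 = 0) : Θ 1 = 0 ∧ ∀ j, InA j → Θ (ι (r j)) = cn j * c j := by
  have hc : ∀ i, ¬ InA i → c i = 0 := fun i hi => by
    simp only [InA, not_and_or, not_not] at hi
    rcases hi with rfl | rfl | rfl <;> assumption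
  have key : ∀ g, Θ g = Nat.card (centralizer ({g} : Set G)) *
      ∑ i, c i * conj (classInd g (ι (r i))) := fun g => by
    rw [← h.2 _ (isClass_classInd g), ← Ind.inner_conj_symm,
      inner_classInd_left g (isClass_of_isGen h.1)]
    have := card_ne_zero_complex (centralizer ({g} : Set G))
    simp only [map_mul, map_inv₀, map_natCast, Complex.conj_conj]
    field_simp
  refine ⟨?_, fun j hj => ?_⟩
  · rw [key, sum_eq_zero, mul_zero]
    intro i _
    by_cases hi : InA i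
    · rw [classInd_of_not_isConj fun h => r_ne i hi.1 (hι (by simpa using h.symm)), map_zero,
        mul_zero]
    · rw [hc i hi, zero_mul]
  · rw [key, card_C hι hr hj, sum_eq_single j, classInd_of_isConj (IsConj.refl _), map_one, mul_one]
    · intro i _ hij
      by_cases hi : InA i
      · rw [classInd_of_not_isConj fun h => hij (eq_of_isConj hι hr hj hi h).symm, map_zero,
          mul_zero]
      · rw [hc i hi, zero_mul]
    · simp

omit hι hr in
theorem Rp.bf {Θ : G → ℂ} {c : Fin 8 → ℂ} (h : Rp ι Θ c) (t : G) :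
    Bf t Θ = Nat.card G * ∑ j, c j * nb t (ι (r j)) := by
  have h1 := h.2 (fun g => (nb t g : ℂ)) fun g x => by simp only [nb_conj]
  simp only [map_natCast] at h1
  rw [← h1, Bf_eq, classInner, ← mul_assoc, mul_inv_cancel₀ (card_ne_zero_complex G), one_mul]
  simp [mul_comm]

theorem exists_nb : ∃ l : ℕ, l ≤ 1 ∧ ∀ j, InA j → nb (ι (r 1)) (ι (r j)) = l * nn j := by
  have hc : ∀ w, IsConj (ι (r (cls w))) (ι w) := fun w => by
    obtain ⟨x, hx⟩ := conj_r w
    exact isConj_iff.2 ⟨ι x, by simpa using congrArg ι hx⟩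
  have hsq : ∀ {u}, IsConj (ι (r 1)) u → u * u = 1 ∧ u ≠ 1 := fun h => by
    obtain ⟨g, rfl⟩ := isConj_iff.1 h
    refine ⟨by rw [conj_mul, ← map_mul, t_sq]; simp, fun h => r_ne 1 (by decide) (hι ?_)⟩
    simpa [mul_inv_eq_one] using h
  have hP : ∀ w, IsConj (ι (r 1)) (ι w) ↔
      cls w = 1 ∨ (IsConj (ι (r 1)) (ι (r 7)) ∧ cls w = 7) := fun w => by
    refine ⟨fun h => ?_, ?_⟩
    · refine (invol w (hι (by simpa using (hsq h).1)) fun e => (hsq h).2 (by simp [e])).imp id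
        fun e => ⟨h.trans ?_, e⟩
      exact e ▸ (hc w).symm
    · rintro (e | ⟨h, e⟩)
      · exact e ▸ hc w
      · exact h.trans (e ▸ hc w)
  have key : ∀ j, InA j → nb (ι (r 1)) (ι (r j)) = (univ.filter fun w : W =>
      IsConj (ι (r 1)) (ι w) ∧ IsConj (ι (r 1)) (ι (w⁻¹ * r j))).card := fun j hj => by
    rw [nb, ← card_image_of_injective _ hι]
    congr 1
    ext u
    simp only [mem_filter, mem_univ, true_and, mem_image, mem_cl]
    constructor
    · rintro ⟨h1, h2⟩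
      have e1 : u * ι (r j) * u⁻¹ = (ι (r j))⁻¹ := by
        have a1 := (hsq h1).1
        have a2 := (hsq h2).1
        have a3 : u⁻¹ = u := inv_eq_of_mul_eq_one_right a1
        rw [a3] at a2 ⊢
        exact eq_inv_of_mul_eq_one_left (by simpa [mul_assoc] using a2)
      obtain ⟨w, rfl⟩ := hr u (by
        rw [← r_pow j hj, map_pow, ← conj_pow, e1, inv_pow, ← map_pow, r_pow j hj, ← map_inv,
          inv_eq_of_mul_eq_one_right t_sq])
      exact ⟨w, ⟨h1, by simpa using h2⟩, rfl⟩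
    · rintro ⟨w, ⟨h1, h2⟩, rfl⟩
      exact ⟨h1, by simpa using h2⟩
  by_cases h7 : IsConj (ι (r 1)) (ι (r 7))
  · refine ⟨1, le_rfl, fun j hj => ?_⟩
    rw [key j hj, one_mul, ← card_nn]
    congr 1
    ext w
    rw [mem_filter, mem_filter, hP, hP (w⁻¹ * _), and_iff_right h7, and_iff_right h7]
  · refine ⟨0, by simp, fun j hj => ?_⟩
    rw [key j hj, zero_mul, card_eq_zero, filter_eq_empty_iff]
    rintro w - ⟨h1, h2⟩
    rw [hP, or_iff_left fun h => h7 h.1] at h1 h2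
    have h3 := cls_one _ h2
    rw [cls_one _ h1, inv_mul_eq_iff_eq_mul, t_sq] at h3
    exact r_ne j hj.1 h3

theorem order [IsSimpleGroup G] : Nat.card G = 5616 ∨ Nat.card G = 7920 := by
  obtain ⟨ω, Θ₃, Θ₄, Θ₆, Θ₂, Θ₂', Θ₈, hω, hωc, h3, h4, h6, h2, h2', h8⟩ := exists_six hι
  have A : InA 1 ∧ InA 2 ∧ InA 3 ∧ InA 4 ∧ InA 5 := by decide
  have vals : ∀ {Θ : G → ℂ} {c : Fin 8 → ℂ}, Rp ι Θ c → c 0 = 0 → c 6 = 0 → c 7 = 0 →
      Θ 1 = 0 ∧ Θ (ι (r 1)) = 48 * c 1 ∧ Θ (ι (r 2)) = 8 * c 2 ∧ Θ (ι (r 3)) = 6 * c 3 ∧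
        Θ (ι (r 4)) = 8 * c 4 ∧ Θ (ι (r 5)) = 8 * c 5 := fun h h0 h6 h7 => by
    obtain ⟨a, b⟩ := h.val hι hr h0 h6 h7
    exact ⟨a, by simpa [cn] using b 1 A.1, by simpa [cn] using b 2 A.2.1,
      by simpa [cn] using b 3 A.2.2.1, by simpa [cn] using b 4 A.2.2.2.1,
      by simpa [cn] using b 5 A.2.2.2.2⟩
  have v3 := vals h3 rfl rfl rfl
  have v4 := vals h4 rfl rfl rfl
  have v6 := vals h6 rfl rfl rfl
  have v2 := vals h2 rfl rfl rfl
  have v2' := vals h2' rfl rfl rfl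
  have b3 := h3.bf (ι (r 1))
  have b4 := h4.bf (ι (r 1))
  obtain ⟨g3, f3⟩ := h3
  obtain ⟨g4, f4⟩ := h4
  obtain ⟨g6, f6⟩ := h6
  obtain ⟨g2, f2⟩ := h2
  obtain ⟨g2', f2'⟩ := h2'
  obtain ⟨g8, f8⟩ := h8
  obtain ⟨l, hl, hnb⟩ := exists_nb hι hr
  simp only [Fin.sum_univ_eight, r_zero, map_one, Matrix.cons_val, zero_mul, add_zero, zero_add]
    at f3 f4 f6 f2 f2' f8 v3 v4 v6 v2 v2' b3 b4
  rw [hnb 1 A.1, hnb 3 A.2.2.1, hnb 4 A.2.2.2.1, hnb 5 A.2.2.2.2] at b3 b4
  simp only [nn, Matrix.cons_val] at b3 b4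
  have hC := card_C hι hr A.1
  have ht1 : ι (r 1) ≠ 1 := fun h => r_ne 1 (by decide) (hι (by simpa using h))
  generalize ι (r 1) = t, ι (r 2) = y, ι (r 3) = u, ι (r 4) = z, ι (r 5) = z' at *
  have c3 := isClass_of_isGen g3
  have c4 := isClass_of_isGen g4
  have c6 := isClass_of_isGen g6
  have c2 := isClass_of_isGen g2
  have c2' := isClass_of_isGen g2'
  have c1 : IsClassFunction G (fun _ => 1) := isClass_const 1
  have o3 : classInner Θ₃ (fun _ => 1) = 1 := by rw [f3 _ c1]; simp; norm_num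
  have o4 : classInner Θ₄ (fun _ => 1) = 0 := by rw [f4 _ c1]; simp; norm_num
  have o6 : classInner Θ₆ (fun _ => 1) = 1 := by rw [f6 _ c1]; simp; norm_num
  have o2 : classInner Θ₂ (fun _ => 1) = 0 := by rw [f2 _ c1]; simp; ring
  have o2' : classInner Θ₂' (fun _ => 1) = 0 := by rw [f2' _ c1]; simp; ring
  have o3s := (inner_comm_of_isGen isGen_one g3).trans o3
  have o6s := (inner_comm_of_isGen isGen_one g6).trans o6
  have o4s := (inner_comm_of_isGen isGen_one g4).trans o4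
  obtain ⟨a, b, c, e, ha, hb, hc, he, e1, e2, ia, ib, ic, ie⟩ := decomp
    (α := Θ₃ - fun _ => 1) (β := Θ₄) (γ := Θ₆ - fun _ => 1) (δ := Θ₂) (δ' := Θ₂')
    (isGen_sub g3 isGen_one) g4 (isGen_sub g6 isGen_one) g2 g2'
    (by simp [Char.inner_sub_left, Char.inner_sub_right, o3, o3s, inner_one_one, f3 _ c3, v3, map_ofNat]
        norm_num)
    (by simp [f4 _ c4, v4, map_ofNat]; norm_num)
    (by simp [Char.inner_sub_left, Char.inner_sub_right, o6, o6s, inner_one_one, f6 _ c6, v6, map_ofNat]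
        norm_num)
    (by simp [f2 _ c2, v2, hωc, map_ofNat]; linear_combination -hω / 4)
    (by simp [f2' _ c2', v2', hωc, map_ofNat]; linear_combination -hω / 4)
    (by simp [Char.inner_sub_right, o4, f4 _ c3, v3, map_ofNat]; norm_num)
    (by simp [Char.inner_sub_left, Char.inner_sub_right, o3s, o6, inner_one_one, f6 _ c3, v3, map_ofNat]
        norm_num)
    (by simp [Char.inner_sub_left, o4s, f6 _ c4, v4, map_ofNat]; norm_num)
    (by simp [Char.inner_sub_right, o2, f2 _ c3, v3, map_ofNat]; ring)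
    (by simp [f2 _ c4, v4, map_ofNat]; ring)
    (by simp [Char.inner_sub_right, o2', f2' _ c3, v3, map_ofNat]; ring)
    (by simp [f2' _ c4, v4, map_ofNat]; ring)
    (by simp [f2 _ c2', v2', hωc, map_ofNat]; linear_combination hω / 4)
    (by simp [v3, v4, v6])
  have val : ∀ {ξ : G → ℂ} {m₃ m₄ m₆ : ℂ}, SI ξ → classInner ξ (fun _ => 1) = 0 →
      classInner (Θ₃ - fun _ => 1) ξ = m₃ ∧ classInner Θ₄ ξ = m₄ ∧
      classInner (Θ₆ - fun _ => 1) ξ = m₆ ∧ classInner Θ₂ ξ = 0 ∧ classInner Θ₂' ξ = 0 →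
      conj (ξ t) = 3 * (m₃ + m₄) - 2 * m₆ ∧ ∃ n k : ℤ, ξ 1 = n ∧
        (8 * k : ℂ) = n + 5 * m₃ - 3 * m₄ + 2 * m₆ := by
    rintro ξ m₃ m₄ m₆ hξ o ⟨i3, i4, i6, i2, i2'⟩
    have os := (inner_comm_of_isGen isGen_one hξ.gen).trans o
    rw [Char.inner_sub_left, os, f3 _ hξ.cls] at i3
    rw [Char.inner_sub_left, os, f6 _ hξ.cls] at i6
    rw [f4 _ hξ.cls] at i4
    rw [f2 _ hξ.cls] at i2
    rw [f2' _ hξ.cls] at i2'
    obtain ⟨n, hn⟩ := exists_int_invol hξ.gen (one_mul (1 : G))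
    obtain ⟨k, hk⟩ := exists_int_inner g8 hξ.gen
    rw [f8 _ hξ.cls, hn, map_intCast] at hk
    refine ⟨by linear_combination 3 * i3 + 3 * i4 - 2 * i6 + 2 * i2 + 2 * i2', n, k, hn, ?_⟩
    linear_combination -8 * hk + 5 * i3 - 3 * i4 + 2 * i6 + 2 * i2 + 2 * i2'
  have oα : classInner (Θ₃ - fun _ => 1) (fun _ => 1) = 0 := by
    rw [Char.inner_sub_left, o3, inner_one_one, sub_self]
  have oc := hc.orth_one ic.2.1 o4
  obtain ⟨ta, na, -, da, -⟩ := val ha (ha.orth_one ia.1 oα) ia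
  obtain ⟨tb, nb, kb, db, qb⟩ := val hb (hb.orth_one ib.1 oα) ib
  obtain ⟨tc, nc, kc, dc, qc⟩ := val hc oc ic
  obtain ⟨te, ne, -, de, -⟩ := val he (he.orth_one ie.2.1 o4) ie
  have cj : ∀ {x : ℂ} (n : ℕ), conj x = n → x = n := fun {x} n h => by
    rw [← Complex.conj_conj x, h, map_natCast]
  have ta' : a t = (3 : ℕ) := cj 3 (by rw [ta]; norm_num)
  have tb' : b t = (4 : ℕ) := cj 4 (by rw [tb]; norm_num)
  have tc' : c t = (1 : ℕ) := cj 1 (by rw [tc]; norm_num)
  have te' : e t = (3 : ℕ) := cj 3 (by rw [te]; norm_num)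
  have qb' : 8 * kb = nb + 4 := by exact_mod_cast (by linear_combination qb : (8 * kb : ℂ) = nb + 4)
  have qc' : 8 * kc = nc - 1 := by exact_mod_cast (by linear_combination qc : (8 * kc : ℂ) = nc - 1)
  have c1' : nc ≠ 1 := fun h => ht1 (hc.eq_one oc (by rw [tc', dc, h]; simp))
  have e1' : Θ₃ = (fun _ => 1) + a + b := by rw [add_assoc, ← e1]; abel
  have d1 := congrFun e1' 1
  have d2 := congrFun e2 1
  simp only [Pi.add_apply, v3.1, v4.1, da, db, dc, de] at d1 d2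
  have si1 : SI (fun _ : G => (1 : ℂ)) := Or.inl isIrr_one
  rw [e1', Bf_add, Bf_add, si1.bf, ha.bf, hb.bf, ta', tb', da, db] at b3
  rw [e2, Bf_add, Bf_add, hb.bf, hc.bf, he.bf, tb', tc', te', db, dc, de] at b4
  have hG := (centralizer ({t} : Set G)).card_mul_index
  rw [hC, ← card_cl] at hG
  have hN : ((cl t).card : ℂ) ≠ 0 := by
    rw [card_cl]; exact_mod_cast index_ne_zero_of_finite
  have a0 := da ▸ ha.one_ne
  have b0 := db ▸ hb.one_ne
  have c0 := dc ▸ hc.one_ne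
  have e0 := de ▸ he.one_ne
  rw [← hG] at b3 b4 ⊢
  simp only [cn, Matrix.cons_val] at b3 b4 ⊢
  generalize (cl t).card = N at *
  push_cast at b3 b4
  have a1 : (na : ℂ) = -(nb + 1) := by linear_combination -d1
  have a2 : (ne : ℂ) = -(nb + nc) := by linear_combination -d2
  have k1 : (1 : ℂ) + 9 / na = 1 / nc + 9 / ne := mul_left_cancel₀ (pow_ne_zero 2 hN) (by
    linear_combination b3 - b4)
  have k2 : (nb - 8) * (nc * (nb + nc)) = (nb - 8 * nc) * (nb + 1) := by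
    field_simp at k1
    rw [a1, a2] at k1
    exact_mod_cast (by linear_combination k1 :
      ((nb - 8) * (nc * (nb + nc)) : ℂ) = (nb - 8 * nc) * (nb + 1))
  have k3 : (N : ℂ) * (1 + 9 / na + 16 / nb) = 192 * l := mul_left_cancel₀ hN (by
    linear_combination b3)
  rw [a1] at k3
  rcases arith (by omega) (by omega) c1' k2 with rfl | rfl
  · have : 64 * N = 7488 * l := by
      exact_mod_cast (by push_cast at k3; linear_combination 39 * k3 : (64 * N : ℂ) = 7488 * l)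
    have : N ≠ 0 := by exact_mod_cast hN
    omega
  · have : 64 * N = 10560 * l := by
      exact_mod_cast (by push_cast at k3; linear_combination 55 * k3 : (64 * N : ℂ) = 10560 * l)
    have : N ≠ 0 := by exact_mod_cast hN
    omega

end Cfsg.Agent.Wong
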